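import Cfsg.Agent.B84C.T

/-! # Two families of virtual characters of small norm -/

set_option autoImplicit false

namespace Cfsg.Agent.B84C

open Cfsg Cfsg.Agent.GT Cfsg.Agent.Char Cfsg.Agent.Cl Cfsg.Agent.B84 Subgroup Function
open scoped ComplexConjugate Classical

/-- trivial on the elements of odd order -/
def Ev {X : Type*} [Group X] (χ : X →* ℂˣ) : Prop := ∀ x, Odd (orderOf x) → χ x = 1

theorem Ev.eq_one {X : Type*} [Group X] [Finite X] {χ : X →* ℂˣ} (e : Ev χ) {m : ℕ} (hm : Odd m)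
    (k : ∀ x, χ x ^ m = 1) : χ = 1 := MonoidHom.ext fun x => by
  obtain ⟨a, b, o, n⟩ := Nat.exists_eq_two_pow_mul_odd (orderOf_pos x).ne'
  refine TT.eq_one_of_pow_coprime (Nat.Coprime.pow_left a (Nat.coprime_two_left.2 hm)) ?_ (k x)
  rw [← map_pow]
  exact e _ (o.of_dvd_nat (orderOf_dvd_of_pow_eq_one (by rw [← pow_mul, ← n, pow_orderOf_eq_one])))

theorem Ev.comp {X : Type*} [Group X] {χ : X →* ℂˣ} (e : Ev χ) (w : MulAut X) : Ev (χ.comp w.toMonoidHom) :=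
  fun x o => e _ (by rwa [MulEquiv.coe_toMonoidHom, MulEquiv.orderOf_eq])

variable {F G : Type*} [Field F] [Fintype F] [Group G] {φ : GL (Fin 2) F →* G} {g : G}

theorem exists_eta (h : (-1 : Fˣ) ≠ 1) : ∃ η : Fˣ →* ℂˣ, Ev η ∧ η (-1) = -1 := by
  obtain ⟨χ, e⟩ := CommGroup.exists_apply_ne_one_of_hasEnoughRootsOfUnity Fˣ ℂ h
  obtain ⟨a, b, o, n⟩ := Nat.exists_eq_two_pow_mul_odd (Nat.card_pos (α := Fˣ)).ne'
  refine ⟨χ ^ b, fun x k => ?_, ?_⟩
  · rw [MonoidHom.pow_apply, ← map_pow, orderOf_dvd_iff_pow_eq_one.1 ((Nat.Coprime.pow_right a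
      (Nat.coprime_two_right.2 k)).dvd_of_dvd_mul_left (n ▸ orderOf_dvd_natCard x)), map_one]
  · rw [MonoidHom.pow_apply, ((Units.inv_eq_self_iff _).1 (by rw [← map_inv]; simp)).resolve_left e, o.neg_one_pow]

omit [Fintype F] in
theorem lift_T (l : Fˣ × Fˣ →* ℂˣ) (k : ∀ a b, φ (dg a b) = 1 → l (a, b) = 1) :
    ∃ χ : Tor φ →* ℂˣ, ∀ d, χ (pT φ d) = l d :=
  ⟨(pT φ).liftOfSurjective pT_surj ⟨l, fun d e => k d.1 d.2 (congrArg Subtype.val e)⟩, fun _ =>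
    MonoidHom.liftOfRightInverse_comp_apply _ _ _ _ _⟩

/-- `a` is the character of the torus given by `η ∘ det` -/
def Dt (η : Fˣ →* ℂˣ) (a : Tor φ →* ℂˣ) : Prop := Ev η ∧ ∀ d, a (pT φ d) = η (d.1 * d.2)

variable (h : Hy φ g) {η η' : Fˣ →* ℂˣ} {a a' : Tor φ →* ℂˣ} {k k' : Tor φ → ℂ} {y : GL (Fin 2) F}
include h

theorem odd_det (o : Odd (orderOf (φ y))) : Odd (orderOf (Matrix.GeneralLinearGroup.det y)) := by
  obtain ⟨c, oc, e⟩ := h.ker (y ^ orderOf (φ y)) (by rw [map_pow, pow_orderOf_eq_one])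
  refine (o.mul oc).of_dvd_nat (orderOf_dvd_of_pow_eq_one ?_)
  rw [pow_mul, ← map_pow, e, det_dg, mul_pow, pow_orderOf_eq_one, mul_one]

theorem exists_Dt (e : Ev η) : ∃ a : Tor φ →* ℂˣ, Dt η a :=
  (lift_T (η.comp mulMonoidHom) fun a b n => e (a * b) (det_dg a b ▸ odd_det h (by simp [n]))).imp fun _ k => ⟨e, k⟩

theorem Dt.ev (d : Dt η a) : Ev a := fun x o => by
  obtain ⟨c, rfl⟩ := pT_surj x
  exact (d.2 c).trans (d.1 _ (det_dg c.1 c.2 ▸ odd_det h (by rwa [← pT_val, orderOf_coe])))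

omit [Fintype F] h in
theorem Dt.s (d : Dt η a) (x : Tor φ) : a (sT φ x) = a x := by
  obtain ⟨c, rfl⟩ := pT_surj x
  rw [sT_pT, d.2, d.2, mul_comm]; rfl

/-- the series induced from a function on the torus -/
noncomputable def IT (k : Tor φ → ℂ) : GL (Fin 2) F → ℂ := II fun d => k (pT φ d)

theorem IT_inv (k : Tor φ → ℂ) (x y : GL (Fin 2) F) (e : φ x = φ y) : IT k x = IT k y := by
  obtain ⟨c, -, n⟩ := h.ker (y⁻¹ * x) (by rw [map_mul, map_inv, e, inv_mul_cancel])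
  have n1 : pT φ (c, c) = 1 := Subtype.ext (by rw [pT_val, ← n, map_mul, map_inv, e, inv_mul_cancel]; rfl)
  have m : dg c c ∈ gl2B F := mem_gl2B.2 rfl
  have : ∀ z, extendByZero (gl2B F) (fun b => k (pT φ (prB b))) (z * dg c c) =
      extendByZero (gl2B F) (fun b => k (pT φ (prB b))) z := fun z => by
    by_cases q : z ∈ gl2B F
    · rw [extendByZero_of_mem _ _ q, extendByZero_of_mem _ _ (mul_mem q m), ← MulMemClass.mk_mul_mk _ _ _ q m, map_mul,
        map_mul, prB_eq (g := ⟨_, m⟩) rfl rfl, n1, mul_one]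
    · rw [extendByZero_of_not_mem _ _ q, extendByZero_of_not_mem _ _ (by rwa [mul_mem_cancel_right m])]
  rw [inv_mul_eq_iff_eq_mul.1 n, IT, II_eq, II_eq, this]
  refine congrArg _ (Finset.sum_congr rfl fun c _ => ?_)
  rw [← mul_assoc, mul_assoc _ (dg _ _), dg_comm, ← mul_assoc, this]

theorem IT_odd (o : ∀ x, Odd (orderOf x) → k x = 0) (y : GL (Fin 2) F) (e : Odd (orderOf (φ y))) : IT k y = 0 := by
  rw [IT, II, indFun_eq_ind]
  refine ind_eq_zero_of_forall fun x b n => o _ (e.of_dvd_nat (orderOf_dvd_of_pow_eq_one ?_))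
  have : φ (b ^ orderOf (φ y) : gl2B F) = 1 := by
    rw [coe_pow, map_pow, show b.1 = _ from n, map_mul, map_mul, map_inv, ← inv_inv (φ x), inv_inv (φ x)⁻¹, conj_pow,
      pow_orderOf_eq_one, mul_one, mul_inv_cancel]
  obtain ⟨c, -, q⟩ := h.ker _ this
  rw [← map_pow, ← map_pow, prB_eq (a := c) (d := c) (by rw [q]; rfl) (by rw [q]; rfl)]
  exact Subtype.ext (by rw [pT_val, ← q, this]; rfl)

omit h

theorem IT_dg {a b : Fˣ} (n : a ≠ b) : IT k (dg a b) = k (pT φ (a, b)) + k (sT φ (pT φ (a, b))) := by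
  rw [IT, II_dg n, sT_pT]; rfl

theorem IT_sub : IT (k - k') = IT k - IT k' := II_sub

theorem IT_add : IT (k + k') = IT k + IT k' := by rw [← sub_eq_iff_eq_add, ← IT_sub, add_sub_cancel_right]

theorem cZ_IT (h : (-1 : Fˣ) ≠ 1) (n : ∃ x, a (sT φ x) ≠ a x) : cZ (dg 1 (-1)) (IT (ch a)) =
    2 * Fintype.card F ^ 2 * (Fintype.card F + 1) * (1 + ch a (pT φ (-1, -1))) :=
  cZ_II h (μ := a.comp (pT φ)) fun e => by
    obtain ⟨x, n⟩ := n
    obtain ⟨c, rfl⟩ := pT_surj x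
    exact n (Units.ext (sT_pT (φ := φ) c ▸ congrFun e c))

theorem cZ_det (h : (-1 : Fˣ) ≠ 1) : cZ (dg 1 (-1)) (fun y => ch η (Matrix.GeneralLinearGroup.det y)) =
    (Fintype.card F * (Fintype.card F + 1) : ℂ) ^ 2 := by
  have := cZ_sirr (t := dg 1 (-1)) (ch_irr (η.comp (Matrix.GeneralLinearGroup.det (n := Fin 2)))).isSIrr
  rw [index_u h] at this
  simp [ch, det_dg, ← Units.val_pow_eq_pow_val, ← map_pow] at this
  exact this

variable [Fintype G]

theorem IT_virt (v : IsGeneralizedCharacter _ k) : IsGeneralizedCharacter _ (IT k) := II_virt (v.comp (pT φ))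

theorem ci_IT : ⟪IT k, IT k'⟫ = ⟪k, k'⟫ + ⟪k, fun x => k' (sT φ x)⟫ := by
  rw [IT, IT, ci_II_II, ← ci_comp_surjective (pT φ) pT_surj, ← ci_comp_surjective (pT φ) pT_surj]
  simp only [sT_pT]; rfl

theorem ci_IT_one : ⟪IT k, fun _ => 1⟫ = ⟪k, fun _ => 1⟫ := ci_II_one.trans (ci_comp_surjective (pT φ) pT_surj k fun _ => 1)

theorem ci_aut (w : MulAut (Tor φ)) : ⟪fun x => k (w x), fun x => k' (w x)⟫ = ⟪k, k'⟫ := ci_comp_equiv w.toEquiv k k'

include h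

theorem ci_r : ⟪fun x => k (rT h x), k'⟫ = ⟪k, fun x => k' (rT h (rT h x))⟫ := by
  rw [← ci_aut (k := k) (rT h)]; simp only [rrr]

theorem Ev.r (e : Ev a) (n : ∀ x, a (rT h x) = a x) : a = 1 := e.eq_one (m := 3) (by decide) fun x => by
  rw [← e (x * rT h x * rT h (rT h x)) (r_fix h (by simp only [map_mul, rrr]; rw [mul_assoc x]; exact mul_comm' _ _)),
    map_mul, map_mul, n, n, n, pow_three']

theorem Dt.rs (d : Dt η a) (n : a ≠ 1) : ∃ x, a.comp (rT h).toMonoidHom (sT φ x) ≠ a.comp (rT h).toMonoidHom x := by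
  by_contra! q
  refine n ((d.ev h).r h fun x => ?_)
  simpa [B84C.rs, d.s, rrr] using q (rT h (rT h x))

theorem Dt.ne (d : Dt η a) (d' : Dt η' a') (n : a' ≠ 1) : a ≠ a'.comp (rT h).toMonoidHom := by
  rintro rfl
  obtain ⟨x, q⟩ := d'.rs h n
  exact q (d.s x)

/-- the first family -/
noncomputable def f1 (η η' : Fˣ →* ℂˣ) (a a' : Tor φ →* ℂˣ) : GL (Fin 2) F → ℂ :=
  (fun y => (ch η - ch η') (Matrix.GeneralLinearGroup.det y)) + IT fun x => (ch a - ch a') (rT h x)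

theorem f1_PK (d : Dt η a) (d' : Dt η' a') : PK h (f1 h η η' a a') (ch a - ch a') := by
  have o : ∀ x, Odd (orderOf x) → (ch a - ch a') x = 0 := fun x o => by simp [ch, d.ev h x o, d'.ev h x o]
  refine ⟨fun x y e => ?_, (((ch_virt η).sub (ch_virt η')).comp _).add
    (IT_virt (((ch_virt a).sub (ch_virt a')).comp (rT h).toMonoidHom)), (ch_virt a).sub (ch_virt a'),
    fun y e => ?_, o, fun x y n => ?_⟩
  · have := odd_det h (y := y⁻¹ * x) (by simp [e])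
    have e1 := d.1 _ this
    have e2 := d'.1 _ this
    simp only [map_mul, map_inv, inv_mul_eq_one] at e1 e2
    simp only [f1, Pi.add_apply, Pi.sub_apply, ch, e1, e2, IT_inv h _ x y e]
  · rw [f1, Pi.add_apply, IT_odd h (fun x e => o (rT h x) (by rwa [MulEquiv.orderOf_eq])) y e]
    simp [ch, d.1 _ (odd_det h e), d'.1 _ (odd_det h e)]
  · simp [f1, IT_dg n, SS, ch, det_dg, d.2, d'.2, rs, d.s, d'.s, add_assoc]

theorem f1_ci {ζ ζ' : Fˣ →* ℂˣ} {b b' : Tor φ →* ℂˣ} (d : Dt η a) (d' : Dt η' a') (e : Dt ζ b) (e' : Dt ζ' b') :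
    ⟪Th φ (f1 h η η' a a'), Th φ (f1 h ζ ζ' b b')⟫ =
      ⟪ch a - ch a', ch b - ch b'⟫ + ⟪ch a - ch a', fun x => (ch b - ch b') (rT h x)⟫ := by
  have k1 : ∀ {η η' : Fˣ →* ℂˣ} {a a' : Tor φ →* ℂˣ}, Dt η a → Dt η' a' → ∀ k : Tor φ → ℂ,
      ⟪IT k, fun y => (ch η - ch η') (Matrix.GeneralLinearGroup.det y)⟫ = ⟪k, ch a - ch a'⟫ := fun d d' k => by
    rw [IT, ci_II_det, ← ci_comp_surjective (pT φ) pT_surj]; simp [ch, d.2, d'.2]
  have k2 : ⟪fun y : GL (Fin 2) F => (ch η - ch η') (Matrix.GeneralLinearGroup.det y),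
      fun y => (ch ζ - ch ζ') (Matrix.GeneralLinearGroup.det y)⟫ = ⟪ch a - ch a', ch b - ch b'⟫ := by
    rw [ci_comp_surjective _ fun c => ⟨dg c 1, by rw [det_dg, mul_one]⟩, ← ci_comp_surjective (pT φ) pT_surj,
      ← ci_comp_surjective mulMonoidHom fun c => ⟨(c, 1), mul_one c⟩]
    simp [ch, d.2, d'.2, e.2, e'.2]
  have v : IsGeneralizedCharacter _ fun x => (ch b - ch b') (rT h x) :=
    ((ch_virt b).sub (ch_virt b')).comp (rT h).toMonoidHom
  have s : ∀ x, (ch b - ch b') (sT φ x) = (ch b - ch b') x := fun x => by simp [ch, e.s, e'.s]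
  rw [(f1_PK h d d').ci (f1_PK h e e'), f1, f1, ci_add_left, ci_add_right, ci_add_right, k2, k1 e e', ci_IT,
    IsGeneralizedCharacter.ci_comm (((ch_virt η).sub (ch_virt η')).comp _) (IT_virt v), k1 d d',
    v.ci_comm ((ch_virt a).sub (ch_virt a')), ci_aut, ci_r, ci_r,
    show SS h (ch b - ch b') = (ch b - ch b') + (fun x => (ch b - ch b') (rT h x)) + fun x => _ from rfl,
    ci_add_right, ci_add_right]
  simp only [rs, s, rrr]
  ring

theorem f1_one (d : Dt η a) (d' : Dt η' a') :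
    ⟪Th φ (f1 h η η' a a'), fun _ => 1⟫ = ⟪ch a - ch a', fun _ => 1⟫ := by
  rw [(f1_PK h d d').ci_one, f1, ci_add_left, ci_IT_one, ci_r, add_sub_cancel_right,
    ci_comp_surjective _ (fun c => ⟨dg c 1, by rw [det_dg, mul_one]⟩) _ fun _ => 1,
    ← ci_comp_surjective (pT φ) pT_surj, ← ci_comp_surjective mulMonoidHom fun c => ⟨(c, 1), mul_one c⟩]
  simp [ch, d.2, d'.2]

theorem f1_val (d : Dt η a) (d' : Dt η' a') :
    Th φ (f1 h η η' a a') (φ (dg (-1) (-1))) = (Fintype.card F + 1) * (ch η (-1) - ch η' (-1)) := by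
  rw [(f1_PK h d d').val]
  simp [f1, IT, II_sc, det_dg, ch, r_t1, d.2, d'.2]

theorem f1_cZ (d : Dt η a) (d' : Dt η' a') : cZ (φ (dg (-1) (-1))) (Th φ (f1 h η η' a a')) =
    C1[φ (dg (-1) (-1))].index * (cZ (dg 1 (-1)) (IT (ch (a.comp (rT h).toMonoidHom))) -
      cZ (dg 1 (-1)) (IT (ch (a'.comp (rT h).toMonoidHom)))) := by
  rw [(f1_PK h d d').cZ_eq, f1, cZ_add, ← cZ_sub, ← IT_sub, show (fun y : GL (Fin 2) F => (ch η - ch η')
    (Matrix.GeneralLinearGroup.det y)) = (fun y => ch η (Matrix.GeneralLinearGroup.det y)) -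
    fun y => ch η' (Matrix.GeneralLinearGroup.det y) from rfl, cZ_sub, cZ_det h.neg_ne, cZ_det h.neg_ne, sub_self, zero_add]
  rfl

theorem Dt.cZ (d : Dt η a) (n : a ≠ 1) : cZ (dg 1 (-1)) (IT (ch (a.comp (rT h).toMonoidHom))) =
    2 * Fintype.card F ^ 2 * (Fintype.card F + 1) * (1 + ch η (-1)) := by
  rw [cZ_IT h.neg_ne (d.rs h n)]; simp [ch, r_t1, d.2]

end Cfsg.Agent.B84C
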