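import Cfsg.Agent.B84C.D

/-! # The index of the centralizer: `q ≡ 1 (mod 4)`, and regular characters of odd order -/

set_option autoImplicit false

namespace Cfsg.Agent.B84C

open Cfsg Cfsg.Agent.GT Cfsg.Agent.Char Cfsg.Agent.Cl Cfsg.Agent.B84 Subgroup Function
open scoped ComplexConjugate Classical

theorem ar_bound {q n c N e : ℤ} (hq : 5 ≤ q) (c0 : 0 < c) (e1 : n * c = q ^ 2 * N) (e2 : N - c - q - 1 ≤ e)
    (e3 : q * e ^ 2 ≤ 2 * c * (q + 1) * (q - 1) ^ 2 * N) : n < 3 * q ^ 2 * (q ^ 2 - q + 1) := by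
  by_contra! k
  have k1 : 3 * (q ^ 2 - q + 1) * c ≤ N := le_of_mul_le_mul_left (a := q ^ 2) (by nlinarith) (by positivity)
  have k2 : 9 * (q + 2) * c ≤ N := le_trans (mul_le_mul_of_nonneg_right (by nlinarith) c0.le) k1
  have k3 : 8 * N ≤ 9 * e := by nlinarith
  have N0 : 0 < N := lt_of_lt_of_le (by positivity) k2
  have k4 : (8 * N) ^ 2 ≤ (9 * e) ^ 2 := pow_le_pow_left₀ (by positivity) k3 2
  have k5 : 64 * q * N ≤ 162 * c * (q + 1) * (q - 1) ^ 2 := le_of_mul_le_mul_right (by nlinarith) N0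
  have k6 : 64 * q * (3 * (q ^ 2 - q + 1)) ≤ 162 * (q + 1) * (q - 1) ^ 2 :=
    le_of_mul_le_mul_right (by nlinarith) c0
  nlinarith

theorem ar_five {n c N : ℤ} (c0 : 0 < c) (N0 : 0 < N) (e1 : n * c = 5 ^ 2 * N) (b : 2 * c ^ 2 + 72 ≤ 480)
    (e : 5 * (N - c + 6) ^ 2 = 96 * c * (N + 1) ∨ 5 * (N - c - 6) ^ 2 = 96 * c * (N - 1)) : 25 ∣ n := by
  by_cases k : 5 ∣ c
  · have : c < 15 := by nlinarith
    obtain rfl | rfl : c = 5 ∨ c = 10 := by omega
    all_goals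
      have : N < 300 := by rcases e with e | e <;> nlinarith
      interval_cases N <;> omega
  · exact (IsCoprime.pow_left (m := 2) ((Int.prime_iff_natAbs_prime.2 (by decide)).coprime_iff_not_dvd.2
      k)).dvd_of_dvd_mul_right ⟨N, e1⟩

variable {F G : Type*} [Field F] [Fintype F] [Group G] [Fintype G] {φ : GL (Fin 2) F →* G} {g : G} (h : Hy φ g)
  {Θ : G → ℂ}
include h

omit [Fintype G] in
theorem card_le : (Nat.card C1[φ (dg (-1) (-1))] : ℤ) ≤
    (Fintype.card F + 1) * ((Fintype.card F - 1) ^ 2 * Fintype.card F) := by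
  have := Nat.cast_le (α := ℤ).2 ((Nat.le_mul_of_pos_right _ Nat.card_pos).trans h.card_H.le)
  rw [card_GL] at this
  simpa [Fintype.card_units, Nat.cast_sub Fintype.card_pos, sq] using this

omit h in
theorem two_ar {e : ℤ} (he : e ≠ 0) (v : IsGeneralizedCharacter G Θ) (h2 : ⟪Θ, Θ⟫ = 2) (h1 : Θ 1 = 0)
    (ht : Θ (φ (dg (-1) (-1))) = 2 * e)
    (hz : cZ (φ (dg (-1) (-1))) Θ = C1[φ (dg (-1) (-1))].index * (4 * Fintype.card F ^ 2 * e)) :
    ∃ (α β : G → ℂ) (N c : ℤ), IsIrrCharacter G α ∧ IsIrrCharacter G β ∧ Θ = α - β ∧ α 1 = N ∧ β 1 = N ∧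
      α (φ (dg (-1) (-1))) = c + e ∧ β (φ (dg (-1) (-1))) = c - e ∧ 0 < N ∧ 0 < c ∧
      C1[φ (dg (-1) (-1))].index * c = Fintype.card F ^ 2 * N ∧
      2 * c ^ 2 + 2 * e ^ 2 ≤ Nat.card C1[φ (dg (-1) (-1))] := by
  obtain ⟨α, β, N, a, b, ha, hb, -, rfl, a1, b1, a2, b2, N0, k, le⟩ := two_term (tt (φ := φ)) v h2 h1
  obtain rfl : a = b + 2 * e := by
    rw [Pi.sub_apply, a2, b2] at ht
    exact_mod_cast sub_eq_iff_eq_add'.1 ht
  have n0 : 0 < C1[φ (dg (-1) (-1))].index := Nat.pos_of_ne_zero index_ne_zero_of_finite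
  have m : C1[φ (dg (-1) (-1))].index * (b + e) = Fintype.card F ^ 2 * N := by
    have : (4 * e * C1[φ (dg (-1) (-1))].index : ℂ) ≠ 0 := by simp [he, n0.ne']
    rw [← Int.cast_inj (α := ℂ)]
    refine mul_left_cancel₀ this ?_
    rw [hz] at k
    push_cast at k ⊢
    linear_combination -k
  refine ⟨α, β, N, b + e, ha, hb, rfl, a1, b1, by rw [a2]; push_cast; ring, by rw [b2]; push_cast; ring, N0,
    pos_of_mul_pos_left (b := (C1[φ (dg (-1) (-1))].index : ℤ)) ?_ (by positivity), m, by linarith⟩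
  have := Fintype.card_pos (α := F)
  rw [mul_comm, m]; positivity

omit [Fintype G] in
theorem dvd_ar {N c e : ℤ} (c0 : 0 < c) (m : C1[φ (dg (-1) (-1))].index * c = Fintype.card F ^ 2 * N)
    (le : 2 * c ^ 2 + 2 * e ^ 2 ≤ Nat.card C1[φ (dg (-1) (-1))]) : ringChar F ∣ C1[φ (dg (-1) (-1))].index := by
  by_contra n
  obtain ⟨k, p, q⟩ := FiniteField.card F (ringChar F)
  have := Int.le_of_dvd c0 ((Nat.isCoprime_iff_coprime.2 (q ▸ Nat.Coprime.pow_left k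
    (p.coprime_iff_not_dvd.2 n))).pow_left.dvd_of_dvd_mul_left ⟨N, m⟩)
  have := card_le h
  have : (1 : ℤ) < Fintype.card F := by exact_mod_cast Fintype.one_lt_card
  have : ((Fintype.card F : ℤ) ^ 2) ^ 2 ≤ c ^ 2 := pow_le_pow_left₀ (by positivity) ‹_› 2
  nlinarith [sq_nonneg e]

theorem one_mod_four (q4 : Fintype.card F % 4 = 1) : ∃ c N : ℤ, 0 < c ∧ 0 < N ∧
    C1[φ (dg (-1) (-1))].index * c = Fintype.card F ^ 2 * N ∧
    2 * c ^ 2 + 2 * (Fintype.card F + 1) ^ 2 ≤ Nat.card C1[φ (dg (-1) (-1))] ∧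
    (Fintype.card F * (N - c + (Fintype.card F + 1)) ^ 2 = (Fintype.card F + 1) * (Fintype.card F - 1) ^ 2 * c * (N + 1) ∨
    Fintype.card F * (N - c - (Fintype.card F + 1)) ^ 2 = (Fintype.card F + 1) * (Fintype.card F - 1) ^ 2 * c * (N - 1)) := by
  obtain ⟨η, ev, e⟩ := exists_eta h.neg_ne
  obtain ⟨a, d⟩ := exists_Dt h ev
  have d2 : Dt (η * η) (a * a) := ⟨fun x o => by simp [ev x o], fun x => by simp [d.2]⟩
  have d1 : Dt 1 (1 : Tor φ →* ℂˣ) := ⟨fun _ _ => rfl, fun _ => rfl⟩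
  have n1 : (-1 : ℂˣ) ≠ 1 := by simp [Units.ext_iff, neg_eq_iff_add_eq_zero]
  have n2 : a * a ≠ 1 := fun k => by
    obtain ⟨i, hi⟩ := FiniteField.isSquare_neg_one_iff.2 (show Fintype.card F % 4 ≠ 3 by omega)
    have i0 : i ≠ 0 := by rintro rfl; simp at hi
    have := d2.2 (.mk0 i i0, 1)
    rw [k, MonoidHom.mul_apply, ← map_mul, mul_one, show Units.mk0 i i0 * .mk0 i i0 = -1 from Units.ext hi.symm,
      e] at this
    exact n1 this.symm
  have n3 : a ≠ 1 := fun k => n2 (by rw [k]; exact mul_one (1 : Tor φ →* ℂˣ))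
  have n4 : a * a ≠ a := fun k => n3 (MonoidHom.ext fun x => mul_eq_left.1 (DFunLike.congr_fun k x))
  have r : ∀ b b' : Tor φ →* ℂˣ, (fun x => (ch b - ch b') (rT h x)) =
    ch (b.comp (rT h).toMonoidHom) - ch (b'.comp (rT h).toMonoidHom) := fun _ _ => rfl
  have c1 : ch (1 : Tor φ →* ℂˣ) = fun _ => 1 := rfl
  have o2 : ⟪Th φ (f1 h (η * η) η (a * a) a), fun _ => 1⟫ = 0 := by
    rw [f1_one h d2 d, ← c1]; simp [ci_sub_left, ci_ch, n2, n3]
  obtain ⟨α, β, N, c, ha, hb, k, a1, b1, a2, b2, N0, c0, m, le⟩ := two_ar (e := Fintype.card F + 1) (by positivity)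
    (f1_PK h d2 d).virt (by
      rw [f1_ci h d2 d d2 d, r]
      simp [-MulEquiv.toMonoidHom_eq_coe, ci_sub_left, ci_sub_right, ci_ch, n4, n4.symm, d2.ne h d2 n2, d2.ne h d n3, d.ne h d2 n2,
        d.ne h d n3]
      norm_num) (PK.one h) (by rw [f1_val h d2 d]; simp [ch, e]; ring)
    (by rw [f1_cZ h d2 d, d2.cZ h n2, d.cZ h n3]; simp [-mul_eq_mul_left_iff, ch, e]; ring)
  obtain ⟨x, y, x0, x1, k', q⟩ := link (tt (φ := φ)) (f1_PK h d1 d2).virt (by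
      rw [f1_ci h d1 d2 d1 d2, r]
      simp [-MulEquiv.toMonoidHom_eq_coe, ci_sub_left, ci_sub_right, ci_ch, n2, n2.symm, d2.ne h d2 n2, d1.ne h d2 n2]
      norm_num) (by rw [f1_one h d1 d2, ← c1]; simp [ci_sub_left, ci_ch, n2]) (PK.one h)
    (by rw [f1_val h d1 d2]; simp [ch, e]) hb ha (by
      rw [← neg_sub, ← k, ci_neg_right, f1_ci h d1 d2 d2 d, r]
      simp [-MulEquiv.toMonoidHom_eq_coe, ci_sub_left, ci_sub_right, ci_ch, n2.symm, n3.symm, n4, d2.ne h d2 n2, d1.ne h d2 n2,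
        d2.ne h d n3, d1.ne h d n3]) (by rw [← neg_sub, ← k, ci_neg_left, o2, neg_zero])
  rw [f1_cZ h d1 d2, d2.cZ h n2, show IT (ch ((1 : Tor φ →* ℂˣ).comp (rT h).toMonoidHom)) = St + fun _ => 1 from
    (sub_add_cancel _ _).symm, cZ_add, cZ_St h.neg_ne, cZ_one, index_u h.neg_ne] at k'
  have n0 : (C1[φ (dg (-1) (-1))].index : ℂ) ≠ 0 := Nat.cast_ne_zero.2 index_ne_zero_of_finite
  have N1 : (N : ℂ) ≠ 0 := Int.cast_ne_zero.2 N0.ne'
  have m' := Int.cast_inj (α := ℂ).2 m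
  simp only [ch, MonoidHom.mul_apply, e, neg_mul_neg, mul_one, Units.val_one] at k'
  refine ⟨c, N, c0, N0, m, le, q.imp (fun q => ?_) fun q => ?_⟩ <;> rw [← Int.cast_inj (α := ℂ)] <;>
    refine mul_left_cancel₀ (mul_ne_zero (mul_ne_zero n0 N1) (q_ne (F := F))) ?_ <;> push_cast at * 
  · rw [← q.1, ← q.2, b1, b2] at k'
    linear_combination -c * k' - C1[φ (dg (-1) (-1))].index * (N - c + (Fintype.card F + 1)) ^ 2 * m'
  · rw [← neg_neg (x : ℂ), ← neg_neg (y : ℂ), ← q.1, ← q.2, a1, a2] at k'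
    linear_combination -c * k' - C1[φ (dg (-1) (-1))].index * (N - c - (Fintype.card F + 1)) ^ 2 * m'

theorem C1_one (q4 : Fintype.card F % 4 = 1) : C1[φ (dg (-1) (-1))].index <
    3 * Fintype.card F ^ 2 * (Fintype.card F ^ 2 - Fintype.card F + 1) := by
  obtain ⟨c, N, c0, N0, m, -, e⟩ := one_mod_four h q4
  have q : 1 < Fintype.card F := Fintype.one_lt_card
  have q5 : (5 : ℤ) ≤ Fintype.card F := by omega
  have p : 0 < (Fintype.card F + 1) * (Fintype.card F - 1) ^ 2 * c := by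
    have : (0 : ℤ) < Fintype.card F - 1 := by omega
    positivity
  zify [Nat.le_self_pow two_ne_zero (Fintype.card F)]
  rcases e with e | e
  · exact ar_bound q5 c0 m (by linarith) (e.le.trans (by nlinarith))
  · exact ar_bound q5 c0 m (by linarith) (e.le.trans (by nlinarith))

theorem C3 (q5 : Fintype.card F = 5) : 25 ∣ C1[φ (dg (-1) (-1))].index := by
  obtain ⟨c, N, c0, N0, m, le, e⟩ := one_mod_four h (by rw [q5])
  have := card_le h
  rw [q5] at m le e this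
  exact Int.natCast_dvd_natCast.1 (ar_five c0 N0 m (by push_cast at *; linarith) (by
    push_cast at *; rcases e with e | e <;> [left; right] <;> linarith))

theorem C4_one (q4 : Fintype.card F % 4 = 1) : ringChar F ∣ C1[φ (dg (-1) (-1))].index := by
  obtain ⟨c, N, c0, -, m, le, -⟩ := one_mod_four h q4
  exact dvd_ar h (e := Fintype.card F + 1) c0 m le

theorem regular_T {l : Tor φ →* ℂˣ} {m : ℕ} (hm : Odd m) (hl : ∀ x, l x ^ m = 1) (h1 : ∃ x, l (rT h x) ≠ l x)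
    (h2 : ∃ x, l (sT φ x) ≠ l x) (h3 : ∃ x, l (sT φ (rT h x)) ≠ l x) (h4 : ∃ x, l (sT φ (rT h (rT h x))) ≠ l x) :
    ringChar F ∣ C1[φ (dg (-1) (-1))].index := by
  obtain ⟨η, ev, e⟩ := exists_eta h.neg_ne
  obtain ⟨a, d⟩ := exists_Dt h ev
  have n1 : (-1 : ℂˣ) ≠ 1 := by simp [Units.ext_iff, neg_eq_iff_add_eq_zero]
  have t1 : a (pT φ (-1, -1)) = 1 := by rw [d.2]; simp
  have t2 : a (pT φ (1, -1)) = -1 := by rw [d.2]; simpa using e
  have t3 : a (pT φ (-1, 1)) = -1 := by rw [d.2]; simpa using e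
  have lt : ∀ x, x * x = 1 → l x = 1 := fun x k =>
    TT.eq_one_of_pow_coprime (Nat.coprime_two_left.2 hm) (by rw [← map_pow, sq, k, map_one]) (hl x)
  have l1 := lt (pT φ (-1, -1)) (Subtype.ext tt)
  have l2 := lt (pT φ (1, -1)) (Subtype.ext uu)
  have l3 := lt (pT φ (-1, 1)) (by rw [← r_t2 h, ← map_mul, ← map_one (rT h)]; exact congrArg _ (Subtype.ext uu))
  have key : ∀ (w : MulAut (Tor φ)) (b b' : Tor φ →* ℂˣ), Ev b → Ev b' → (∃ x, l (w x) ≠ l x) →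
      ∃ x, (l * b') (w x) ≠ (l * b) x := fun w b b' e e' ⟨x, n⟩ => by
    by_contra! q
    have : l.comp w.toMonoidHom * l⁻¹ = 1 := Ev.eq_one (fun x o => by
      simpa [mul_inv_eq_one, e x o, e' (w x) (by rwa [MulEquiv.orderOf_eq])] using q x) hm fun x => by
        simp [mul_pow, hl]
    exact n (by simpa [mul_inv_eq_one] using DFunLike.congr_fun this x)
  set μ := ch l - ch (l * a) with hμ
  have z : ∀ w : MulAut (Tor φ), (∃ x, l (w x) ≠ l x) → ⟪μ, fun x => μ (w x)⟫ = 0 := fun w n => by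
    have k : ∀ b b' : Tor φ →* ℂˣ, Ev b → Ev b' → l * b ≠ (l * b').comp w.toMonoidHom := fun b b' e e' q => by
      obtain ⟨x, n⟩ := key w b b' e e' n
      exact n (DFunLike.congr_fun q x).symm
    have o : Ev (1 : Tor φ →* ℂˣ) := fun _ _ => rfl
    have m1 : l * 1 = l := mul_one l
    have k1 := k _ _ o o
    have k2 := k _ _ o (d.ev h)
    have k3 := k _ _ (d.ev h) o
    rw [m1] at k1 k2 k3
    rw [show (fun x => μ (w x)) = ch (l.comp w.toMonoidHom) - ch ((l * a).comp w.toMonoidHom) from rfl]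
    simp only [hμ, ci_sub_left, ci_sub_right, ci_ch, k1, k2, k3, k _ _ (d.ev h) (d.ev h), if_false, sub_zero]
  have z1 := z _ h1
  have z2 := z _ h2
  have z3 := z (sT φ * rT h) h3
  have z4 := z (sT φ * rT h * rT h) h4
  have z5 := z (rT h * rT h) (h1.elim fun x n => ⟨rT h x, by simpa [rrr] using n.symm⟩)
  have z0 : ⟪μ, μ⟫ = 2 := by
    have : l ≠ l * a := fun q => n1 (t2.symm.trans (left_eq_mul.1 (DFunLike.congr_fun q _)))
    simp only [hμ, ci_sub_left, ci_sub_right, ci_ch, this, this.symm, if_false, if_true]; norm_num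
  have v : ∀ w : MulAut (Tor φ), IsGeneralizedCharacter _ fun x => μ (w x) := fun w =>
    ((ch_virt l).sub (ch_virt _)).comp w.toMonoidHom
  have o : ∀ (w : MulAut (Tor φ)) x, Odd (orderOf x) → μ (w x) = 0 := fun w x o => by
    simp [hμ, ch, d.ev h (w x) (by rwa [MulEquiv.orderOf_eq])]
  have S : ∀ k, SS h k = k + (fun x => k (rT h x)) + fun x => k (rT h (rT h x)) := fun _ => rfl
  have p : PK h (IT (SS h μ)) (μ + fun x => μ (sT φ x)) := ⟨IT_inv h _,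
    IT_virt (((v 1).add (v (rT h))).add (v (rT h * rT h))), (v 1).add (v _),
    IT_odd h fun x e => by rw [SS, show μ x = 0 from o 1 x e, o _ x e, show μ (rT h (rT h x)) = 0 from
      o (rT h * rT h) x e]; simp, fun x e => by rw [Pi.add_apply, show μ x = 0 from o 1 x e, o _ x e, add_zero],
    fun a b n => by simp only [IT_dg n, SS, Pi.add_apply, rs, rrr]; ring⟩
  have A : ∀ k k' k'' : Tor φ → ℂ, ⟪k, fun x => k' x + k'' x⟫ = ⟪k, k'⟫ + ⟪k, k''⟫ := fun _ _ _ => ci_add_right _ _ _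
  have A1 : ∀ k, ⟪fun x => μ (rT h x), k⟫ = ⟪μ, fun x => k (rT h (rT h x))⟫ := fun _ => ci_r h
  have A2 : ∀ k, ⟪fun x => μ (rT h (rT h x)), k⟫ = ⟪μ, fun x => k (rT h x)⟫ := fun _ => by
    rw [ci_r h (k := fun x => μ (rT h x)), ci_r h]; simp only [rrr]
  have A3 : ∀ k, ⟪fun x => μ (sT φ x), k⟫ = ⟪μ, fun x => k (sT φ x)⟫ := fun _ => by
    rw [← ci_aut (k := μ) (sT φ)]; simp only [ss]
  have c : ∀ w : MulAut (Tor φ), (∃ x, l (w (sT φ (w⁻¹ x))) ≠ l x) → cZ (dg 1 (-1)) (IT fun x => μ (w x)) =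
      2 * Fintype.card F ^ 2 * (Fintype.card F + 1) * μ (w (pT φ (-1, -1))) := fun w n => by
    obtain ⟨x, n'⟩ := key (w * sT φ * w⁻¹) a a (d.ev h) (d.ev h) n
    obtain ⟨y, n⟩ := n
    rw [show (fun x => μ (w x)) = ch (l.comp w.toMonoidHom) - ch ((l * a).comp w.toMonoidHom) from rfl, IT_sub, cZ_sub,
      cZ_IT h.neg_ne ⟨w⁻¹ y, by simpa using n⟩, cZ_IT h.neg_ne ⟨w⁻¹ x, by simpa using n'⟩]
    simp only [hμ, ch, Pi.sub_apply, MonoidHom.comp_apply, MulEquiv.coe_toMonoidHom]; ring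
  have i1 : ∀ x, (rT h)⁻¹ x = rT h (rT h x) := fun x => (MulEquiv.symm_apply_eq _).2 (rrr h x).symm
  simp only [MulAut.mul_apply] at z3 z4 z5
  obtain ⟨-, -, N, c, -, -, -, -, -, -, -, -, c0, m, le⟩ := two_ar (e := 2 * (Fintype.card F + 1)) (by positivity) p.virt
    (by rw [p.ci p, ci_IT, S, S]
        simp only [ci_add_left, ci_add_right, Pi.add_apply, A, A1, A2, A3, rs, rrr, ss, z0, z1, z2, z3, z4, z5]
        norm_num) (PK.one h)
    (by rw [p.val, IT, II_sc]; simp [SS, r_t1, r_t2, hμ, ch, t1, t2, t3, l1, l2, l3]; ring)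
    (by rw [p.cZ_eq, S, IT_add, IT_add, cZ_add, cZ_add, show cZ _ (IT μ) = _ from c 1 h2,
          c _ (by simpa only [i1, rs, rrr] using h3), show cZ _ (IT fun x => μ (rT h (rT h x))) = _ from
          c (rT h * rT h) (by simpa only [mul_inv_rev, MulAut.mul_apply, i1, rs, rrr] using h4)]
        simp [-mul_eq_mul_left_iff, r_t1, r_t2, hμ, ch, t1, t2, t3, l1, l2, l3]; ring)
  exact dvd_ar h (e := 2 * (Fintype.card F + 1)) c0 m le

theorem regular_dvd {l : Fˣ × Fˣ →* ℂˣ} {m : ℕ} (hm : Odd m) (hl : l ^ m = 1)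
    (hk : ∀ a b, φ (dg a b) = 1 → l (a, b) = 1)
    (h1 : ∃ a b c d, g * φ (dg a b) * g⁻¹ = φ (dg c d) ∧ l (a, b) ≠ l (c, d))
    (h2 : ∃ a b c d, φ ww * φ (dg a b) * (φ ww)⁻¹ = φ (dg c d) ∧ l (a, b) ≠ l (c, d))
    (h3 : ∃ a b c d, φ ww * g * φ (dg a b) * (φ ww * g)⁻¹ = φ (dg c d) ∧ l (a, b) ≠ l (c, d))
    (h4 : ∃ a b c d, φ ww * g * g * φ (dg a b) * (φ ww * g * g)⁻¹ = φ (dg c d) ∧ l (a, b) ≠ l (c, d)) :
    ringChar F ∣ C1[φ (dg (-1) (-1))].index := by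
  obtain ⟨χ, e⟩ := lift_T l hk
  have k : ∀ (w : Tor φ → Tor φ) (y : G), (∀ x, (w x : G) = y * x * y⁻¹) →
      (∃ a b c d, y * φ (dg a b) * y⁻¹ = φ (dg c d) ∧ l (a, b) ≠ l (c, d)) → ∃ x, χ (w x) ≠ χ x :=
    fun w y q ⟨a, b, c, d, n, n'⟩ => ⟨pT φ (a, b), by
      rw [show w (pT φ (a, b)) = pT φ (c, d) from Subtype.ext ((q _).trans n), e, e]; exact n'.symm⟩
  refine regular_T h hm (fun x => ?_) (k _ _ (rT_val h) h1) (k _ _ sT_val h2) (k _ _ (fun x => ?_) h3)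
    (k _ _ (fun x => ?_) h4)
  · obtain ⟨c, rfl⟩ := pT_surj x
    rw [e, ← MonoidHom.pow_apply, hl]; rfl
  all_goals simp only [sT_val, rT_val]; group

end Cfsg.Agent.B84C
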